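import Mathlib
import Cfsg.Agent.Lib.Helper44.Frob3.Defs
import Cfsg.Agent.Lib.Helper76.PRegBlock
import Cfsg.Agent.Lib.Helper26.VChar
import Cfsg.Agent.Lib.Helper77.Defect
import Cfsg.Agent.Lib.Helper81.CharCore

set_option autoImplicit false

/-!
# S4427 package [P]: the generalized character `p^a · 1_{p-regular}` and its norm
-/

universe u

namespace Cfsg.Agent.Lib.Helper62.Frob3

open Cfsg.Agent.Lib.Helper44.Frob3
open scoped ComplexConjugate

theorem pkgPsi : PkgPsi.{u} := by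
  intro G _ _ p hp hcount
  classical
  haveI : Fact p.Prime := ⟨hp⟩
  letI := Fintype.ofFinite G
  haveI := Cfsg.Agent.Lib.Helper81.irr_finite G
  letI := Fintype.ofFinite (Cfsg.IrrCharacter G)
  obtain ⟨a, ha⟩ : ∃ a : ℕ, a = (Nat.card G).factorization p := ⟨_, rfl⟩
  rw [← ha] at hcount ⊢
  obtain ⟨θ, hθ⟩ : ∃ θ : G → ℂ,
      θ = fun x : G => if p ∣ orderOf x then (0 : ℂ) else ((p ^ a : ℕ) : ℂ) := ⟨_, rfl⟩
  have hgen : Cfsg.IsGeneralizedCharacter G θ := by
    have h := Cfsg.Agent.Lib.Helper76.isGen_pRegular_full p (Cfsg.Agent.Lib.Helper77.trivIrr G)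
    rw [← ha] at h
    have e : θ = fun x : G => if p ∣ orderOf x then (0 : ℂ) else
        ((p ^ a : ℕ) : ℂ) * (Cfsg.Agent.Lib.Helper77.trivIrr G : G → ℂ) x := by
      rw [hθ]
      funext x
      rw [Cfsg.Agent.Lib.Helper77.trivIrr_apply, mul_one]
    rw [e]
    exact h
  obtain ⟨n, hn⟩ := Cfsg.Agent.Lib.Helper26.gen_expansion hgen
  refine ⟨n, fun x => ?_, ?_⟩
  · rw [finsum_eq_sum_of_fintype]
    have h1 := congrFun hn x
    rw [Finset.sum_apply] at h1
    simp only [Pi.smul_apply, smul_eq_mul] at h1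
    rw [← h1, hθ]
  · rw [finsum_eq_sum_of_fintype]
    have h2 := Cfsg.Agent.Lib.Helper26.classInner_expansion (fun ψ => (n ψ : ℂ))
      (fun ψ => (n ψ : ℂ))
    rw [← hn] at h2
    have hG0 : (Nat.card G : ℂ) ≠ 0 := by
      have := Nat.card_pos (α := G)
      exact_mod_cast this.ne'
    have h3 : Cfsg.classInner θ θ = ((p ^ a : ℕ) : ℂ) := by
      unfold Cfsg.classInner
      have h4 : ∀ g : G, θ g * conj (θ g)
          = if p ∣ orderOf g then (0 : ℂ) else ((p ^ a : ℕ) : ℂ) * ((p ^ a : ℕ) : ℂ) := by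
        intro g
        rw [hθ]
        by_cases hg : p ∣ orderOf g
        · simp only [if_pos hg, zero_mul]
        · simp only [if_neg hg, Complex.conj_natCast]
      rw [Finset.sum_congr rfl (fun g _ => h4 g), Finset.sum_ite, Finset.sum_const_zero, zero_add,
        Finset.sum_const, nsmul_eq_mul]
      have h5 : (Finset.univ.filter (fun g : G => ¬ p ∣ orderOf g)).card
          = Nat.card {g : G // ¬ p ∣ orderOf g} := by
        rw [Nat.card_eq_fintype_card, Fintype.card_subtype]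
      rw [h5]
      have h6 : ((Nat.card {g : G // ¬ p ∣ orderOf g} : ℕ) : ℂ) * ((p ^ a : ℕ) : ℂ)
          = (Nat.card G : ℂ) := by
        rw [← Nat.cast_mul, hcount]
      rw [← mul_assoc ((Nat.card {g : G // ¬ p ∣ orderOf g} : ℕ) : ℂ), h6, ← mul_assoc,
        inv_mul_cancel₀ hG0, one_mul]
    rw [h3] at h2
    have h7 : ((∑ χ : Cfsg.IrrCharacter G, n χ ^ 2 : ℤ) : ℂ) = (((p ^ a : ℕ) : ℤ) : ℂ) := by
      rw [Int.cast_sum, Int.cast_natCast, h2]
      refine Finset.sum_congr rfl (fun χ _ => ?_)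
      rw [map_intCast, Int.cast_pow, pow_two]
    exact_mod_cast h7

end Cfsg.Agent.Lib.Helper62.Frob3
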